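import Cfsg.Prelude.Def_OddOrderChar
import Cfsg.Agent.Lib.ChDeg.Cliff
import Cfsg.Agent.Lib.Char.FrobChar

/-! Exceptional characters for a T.I. subgroup with Frobenius normalizer. -/

set_option autoImplicit false

open scoped Classical ComplexConjugate

namespace CfsgLib.ChMisc

open Cfsg CfsgLib.Char CfsgLib.ChDeg

section
variable {Y : Type*} [Group Y] [Fintype Y]

theorem eq_const_add_reg {f : Y → ℂ} {a : ℂ} (h : ∀ y, y ≠ 1 → f y = a) :
    f = a • (fun _ => (1 : ℂ)) + ((f 1 - a) / Nat.card Y) • regChar Y := funext fun y => by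
  by_cases hy : y = 1
  · subst hy
    simp [regChar_one, div_mul_cancel₀ _ (natCard_ne_zero (G := Y)), -Nat.card_eq_fintype_card]
  · simp [regChar_of_ne_one hy, h y hy]

theorem inner_of_const {f : Y → ℂ} {a : ℂ} (h : ∀ y, y ≠ 1 → f y = a) {τ : Y → ℂ}
    (hτ : IsIrrCharacter Y τ) (h1 : τ ≠ fun _ => 1) :
    classInner f τ = (f 1 - a) / Nat.card Y * τ 1 := by
  conv_lhs => rw [eq_const_add_reg h]
  rw [classInner_add_left, classInner_smul_left, classInner_smul_left,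
    classInner_irr_of_ne isIrr_one hτ h1.symm, classInner_regChar_left,
    conj_char_one (isCharacter_of_isIrr hτ), mul_zero, zero_add]

theorem const_of_inner {f : Y → ℂ} (hf : IsClassFunction Y f)
    (h : ∀ τ σ, IsIrrCharacter Y τ → IsIrrCharacter Y σ → (τ ≠ fun _ => 1) → (σ ≠ fun _ => 1) →
      σ 1 * classInner f τ = τ 1 * classInner f σ) : ∃ a, ∀ y, y ≠ 1 → f y = a := by
  obtain ⟨b, hb⟩ : ∃ b, ∀ τ, IsIrrCharacter Y τ → (τ ≠ fun _ => 1) → classInner f τ = b * τ 1 := by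
    by_cases h0 : ∃ σ, IsIrrCharacter Y σ ∧ σ ≠ fun _ => 1
    · obtain ⟨σ, h1, h2⟩ := h0
      refine ⟨classInner f σ / σ 1, fun τ h3 h4 => ?_⟩
      have := irr_one_ne_zero h1
      field_simp
      linear_combination h τ σ h3 h1 h4 h2
    · exact ⟨0, fun τ h1 h2 => absurd ⟨τ, h1, h2⟩ h0⟩
  have := classFun_ext_of_inner hf (isClassFunction_add (isClassFunction_smul
    (classInner f (fun _ => 1) - b) (isClassFunction_const 1)) (isClassFunction_smul b
      (isClassFunction_of_isCharacter isCharacter_regChar))) fun τ hτ => by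
    rw [classInner_add_left, classInner_smul_left, classInner_smul_left, classInner_regChar_left,
      conj_char_one (isCharacter_of_isIrr hτ)]
    by_cases h1 : τ = fun _ => 1
    · subst h1
      simp [classInner_one_one]
    · rw [classInner_irr_of_ne isIrr_one hτ (Ne.symm h1), hb τ hτ h1, mul_zero, zero_add]
  exact ⟨_, fun y hy => by rw [congrFun this y]; simp [regChar_of_ne_one hy]; rfl⟩

theorem exists_int_of_mul_deg {m : ℂ} {σ : Y → ℂ} (hσ : IsIrrCharacter Y σ) (h1 : σ ≠ fun _ => 1)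
    (h : ∀ τ, IsIrrCharacter Y τ → (τ ≠ fun _ => 1) → ∃ z : ℤ, m * τ 1 = z) : ∃ z : ℤ, m = z := by
  have h2 : m = m * Nat.card Y - ∑ τ ∈ Finset.univ.erase (irrOne Y), m * (τ : Y → ℂ) 1 * (τ : Y → ℂ) 1 := by
    rw [← sum_irr_one_sq, ← Finset.add_sum_erase _ _ (Finset.mem_univ (irrOne Y)), irrOne_apply, mul_add,
      Finset.mul_sum]
    simp [sq, mul_assoc]
  suffices m ∈ (Int.castRingHom ℂ).range from this.imp fun _ => Eq.symm
  rw [h2]
  refine sub_mem ?_ (sum_mem fun τ hτ => mul_mem ?_ ?_)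
  · obtain ⟨c, hc⟩ := deg_dvd_card hσ
    obtain ⟨z, hz⟩ := h σ hσ h1
    exact ⟨z * c, by simp [← hz, hc, deg_cast (isCharacter_of_isIrr hσ), mul_assoc, -Nat.card_eq_fintype_card]⟩
  · exact (h τ τ.2 fun e => Finset.ne_of_mem_erase hτ (Subtype.ext e)).imp fun _ => Eq.symm
  · exact ⟨charDegree (τ : Y → ℂ), by simp [irr_deg_cast]⟩

theorem exists_int_of_const {f : Y → ℂ} (hf : IsGeneralizedCharacter Y f) {a : ℂ}
    (h : ∀ y, y ≠ 1 → f y = a) {σ : Y → ℂ} (hσ : IsIrrCharacter Y σ) (h1 : σ ≠ fun _ => 1) :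
    ∃ z : ℤ, a = z := by
  obtain ⟨b, hb⟩ := exists_int_of_mul_deg hσ h1 fun τ h2 h3 =>
    inner_of_const h h2 h3 ▸ exists_classInner_eq_int hf (isGenChar_of_isIrr h2)
  obtain ⟨c, hc⟩ := exists_classInner_eq_int hf isGenChar_one
  rw [eq_const_add_reg h, hb, classInner_add_left, classInner_smul_left, classInner_smul_left,
    classInner_one_one, classInner_regChar_left] at hc
  exact ⟨c - b, by simp [← hc]⟩

/-- the irreducible characters whose kernel does not contain `K` -/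
def relS (K : Subgroup Y) : Set (Y → ℂ) := {χ | IsIrrCharacter Y χ ∧ ∃ k, k ∈ K ∧ χ k ≠ χ 1}

theorem mem_relS {K : Subgroup Y} [K.Normal]
    (hK : ∀ x ∈ K, x ≠ 1 → Subgroup.centralizer ({x} : Set Y) ≤ K) {χ : Y → ℂ} :
    χ ∈ relS K ↔ ∃ τ : K → ℂ, IsIrrCharacter K τ ∧ (τ ≠ fun _ => 1) ∧ χ = indFun K τ := by
  refine ⟨fun ⟨h, k, hk, h1⟩ => (irr_ker_or_induced_of_centralizer_le K hK h).resolve_left
    fun h2 => h1 (h2 k hk), ?_⟩
  rintro ⟨τ, h1, h2, rfl⟩
  have h3 := isIrr_indFun_of_centralizer_le K hK h1 h2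
  refine ⟨h3, ?_⟩
  by_contra h4
  push Not at h4
  exact not_le_cker_of_over K (isCharacter_of_isIrr h3) h1 h2 (inner_res_indFun_self_ne_zero K h1)
    fun k hk => (mem_cker (isCharacter_of_isIrr h3)).2 (h4 k hk)

end

variable {G : Type*} [Group G] [Fintype G] {N : Subgroup G} [Fintype N] {K : Subgroup N} [K.Normal]
  (hK : ∀ x ∈ K, x ≠ 1 → Subgroup.centralizer ({x} : Set N) ≤ K)
  {star : (N → ℂ) → (G → ℂ)} (hstar : IsLinearIsometryOn (zspan (relS K)) star)
  (hext : ∀ α ∈ zspanOn (relS K) ({1}ᶜ : Set N), star α = indFun N α)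

omit [K.Normal] in
include hstar hext in
theorem star_comb {χ ξ : N → ℂ} (hχ : χ ∈ relS K) (hξ : ξ ∈ relS K) {a b : ℕ}
    (h : a * χ 1 = b * ξ 1) :
    (a : ℂ) • star χ - (b : ℂ) • star ξ = indFun N ((a : ℂ) • χ - (b : ℂ) • ξ) := by
  have h1 : χ ∈ zspan (relS K) := Submodule.subset_span hχ
  have h2 : ξ ∈ zspan (relS K) := Submodule.subset_span hξ
  have h3 := hstar.1 _ (Submodule.smul_mem _ (a : ℤ) h1) _ (Submodule.smul_mem _ (-b : ℤ) h2)
  rw [hstar.2.1 _ h1, hstar.2.1 _ h2, hext _ ⟨add_mem (Submodule.smul_mem _ _ h1)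
    (Submodule.smul_mem _ _ h2), fun x hx => by
      obtain rfl : x = 1 := by simpa using hx
      simp [h]⟩] at h3
  simpa [sub_eq_add_neg, Nat.cast_smul_eq_nsmul] using h3.symm

include hK hstar hext in
theorem inner_star_comb {ψ : G → ℂ} (hψ : IsClassFunction G ψ) {τ σ : K → ℂ} (hτ : IsIrrCharacter K τ)
    (hσ : IsIrrCharacter K σ) (h1 : τ ≠ fun _ => 1) (h2 : σ ≠ fun _ => 1) :
    σ 1 * classInner ψ (star (indFun K τ)) - τ 1 * classInner ψ (star (indFun K σ)) =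
      σ 1 * classInner (fun k : K => ψ k) τ - τ 1 * classInner (fun k : K => ψ k) σ := by
  have e1 := deg_cast (isCharacter_of_isIrr hτ)
  have e2 := deg_cast (isCharacter_of_isIrr hσ)
  have h3 := congrArg (classInner ψ) (star_comb hstar hext ((mem_relS hK).2 ⟨τ, hτ, h1, rfl⟩)
    ((mem_relS hK).2 ⟨σ, hσ, h2, rfl⟩) (a := charDegree σ) (b := charDegree τ) (by
      rw [indFun_one, indFun_one, e1, e2]; ring))
  have h4 := isClassFunction_restrict N hψ
  simp only [classInner_sub_right, classInner_smul_right, classInner_indFun_right N _ hψ,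
    classInner_indFun_right K _ h4, map_natCast] at h3
  rwa [e1, e2] at h3

include hK hstar hext in
theorem star_sub_const {χ : N → ℂ} (hχ : χ ∈ relS K) :
    ∃ z : ℤ, ∀ k : K, k ≠ 1 → star χ k - χ k = z := by
  have h1 : χ ∈ zspan (relS K) := Submodule.subset_span hχ
  have hg := isGenChar_sub (isGenChar_restrict K (isGenChar_restrict N (hstar.2.2.2 _ h1)))
    (isGenChar_restrict K (isGenChar_of_isIrr hχ.1))
  obtain ⟨a, ha⟩ := const_of_inner (isClassFunction_of_isGenChar hg) fun τ σ hτ hσ h2 h3 => by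
    have h4 := inner_star_comb hK hstar hext (isClassFunction_of_isGenChar (hstar.2.2.2 _ h1)) hτ hσ h2 h3
    rw [hstar.2.2.1 _ h1 _ (Submodule.subset_span ((mem_relS hK).2 ⟨τ, hτ, h2, rfl⟩)),
      hstar.2.2.1 _ h1 _ (Submodule.subset_span ((mem_relS hK).2 ⟨σ, hσ, h3, rfl⟩)),
      classInner_indFun_right K _ (isClassFunction_of_isIrr hχ.1),
      classInner_indFun_right K _ (isClassFunction_of_isIrr hχ.1)] at h4
    simp only [classInner_sub_left]
    linear_combination -h4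
  obtain ⟨τ, h2, h3, -⟩ := (mem_relS hK).1 hχ
  obtain ⟨z, rfl⟩ := exists_int_of_const hg ha h2 h3
  exact ⟨z, ha⟩

include hK hstar hext in
theorem exists_star_sub (T : Set G) (hTI : ∀ g : G, g ∉ N → ∀ t ∈ T, g * t * g⁻¹ ∈ T → t = 1)
    (hT : ∀ x : N, x ∈ K → (x : G) ∈ T) :
    ∃ m : ℤ, ∀ χ ∈ relS K, ∀ k : N, k ∈ K → k ≠ 1 → star χ k - χ k = m * χ 1 / K.index := by
  by_cases h0 : ∃ σ, IsIrrCharacter K σ ∧ σ ≠ fun _ => 1
  swap
  · refine ⟨0, fun χ hχ => ?_⟩
    obtain ⟨τ, h2, h3, -⟩ := (mem_relS hK).1 hχ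
    exact absurd ⟨τ, h2, h3⟩ h0
  obtain ⟨σ, hσ, h1⟩ := h0
  have hs := (mem_relS hK).2 ⟨σ, hσ, h1, rfl⟩
  obtain ⟨z, hz⟩ := star_sub_const hK hstar hext hs
  have key : ∀ τ, IsIrrCharacter K τ → (τ ≠ fun _ => 1) → ∀ k : K, k ≠ 1 →
      star (indFun K τ) k - indFun K τ k = z / σ 1 * τ 1 := fun τ hτ h2 k hk => by
    have ht := (mem_relS hK).2 ⟨τ, hτ, h2, rfl⟩
    have e1 := deg_cast (isCharacter_of_isIrr hτ)
    have e2 := deg_cast (isCharacter_of_isIrr hσ)
    have h3 := congrFun (star_comb hstar hext ht hs (a := charDegree σ) (b := charDegree τ) (by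
      rw [indFun_one, indFun_one, e1, e2]; ring)) k
    rw [indFun_eq_of_ti N T hTI (isClassFunction_sub (isClassFunction_smul _ (isClassFunction_indFun K τ))
      (isClassFunction_smul _ (isClassFunction_indFun K σ))) (fun x hx => by
        simp [indFun_eq_zero_of_normal K _ (mt (hT x) hx)]) k (hT k k.2) (by simpa using hk)] at h3
    simp only [Pi.sub_apply, Pi.smul_apply, smul_eq_mul, e1, e2] at h3
    have := irr_one_ne_zero hσ
    rw [← hz k hk]
    field_simp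
    linear_combination h3
  obtain ⟨k₀, hk₀, hk₁⟩ := hs.2
  have hk₂ : (⟨k₀, hk₀⟩ : K) ≠ 1 := fun e => hk₁ (by rw [show k₀ = 1 from congrArg Subtype.val e])
  obtain ⟨m, hm⟩ := exists_int_of_mul_deg (m := z / σ 1) hσ h1 fun τ hτ h2 => by
    obtain ⟨w, hw⟩ := star_sub_const hK hstar hext ((mem_relS hK).2 ⟨τ, hτ, h2, rfl⟩)
    exact ⟨w, (key τ hτ h2 _ hk₂).symm.trans (hw _ hk₂)⟩
  refine ⟨m, fun χ hχ k hk hk1 => ?_⟩
  obtain ⟨τ, h2, h3, rfl⟩ := (mem_relS hK).1 hχ
  have : (K.index : ℂ) ≠ 0 := Nat.cast_ne_zero.2 K.index_ne_zero_of_finite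
  rw [key τ h2 h3 ⟨k, hk⟩ (by simpa using hk1), hm, indFun_one]
  field_simp

include hK hstar hext in
theorem exceptional_iff (htwo : ∃ χ ∈ relS K, ∃ ξ ∈ relS K, χ ≠ ξ) {ψ : G → ℂ} (hψ : IsIrrCharacter G ψ) :
    (∃ χ ∈ relS K, ψ = star χ ∨ ψ = -star χ) ↔ ¬ ∃ a, ∀ k : K, k ≠ 1 → ψ k = a := by
  constructor
  · rintro ⟨χ, hχ, h⟩ ⟨a, ha⟩
    obtain ⟨z, hz⟩ := star_sub_const hK hstar hext hχ
    obtain ⟨b, hb⟩ : ∃ b, ∀ k : K, k ≠ 1 → χ k = b := by
      rcases h with rfl | rfl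
      · exact ⟨a - z, fun k hk => by rw [← ha k hk, ← hz k hk]; ring⟩
      · exact ⟨-a - z, fun k hk => by rw [← ha k hk, ← hz k hk]; simp⟩
    have key : ∀ ξ ∈ relS K, χ = ξ := fun ξ hξ => by
      obtain ⟨τ, h2, h3, e⟩ := (mem_relS hK).1 hχ
      obtain ⟨σ, h4, h5, rfl⟩ := (mem_relS hK).1 hξ
      refine irr_eq_of_classInner_ne_zero hχ.1 hξ.1 ?_
      rw [classInner_indFun_right K _ (isClassFunction_of_isIrr hχ.1), inner_of_const hb h4 h5]
      have h6 := inner_res_indFun_self_ne_zero K h2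
      rw [← e, inner_of_const hb h2 h3] at h6
      exact mul_ne_zero (left_ne_zero_of_mul h6) (irr_one_ne_zero h4)
    obtain ⟨χ₁, h1, χ₂, h2, h3⟩ := htwo
    exact h3 ((key _ h1).symm.trans (key _ h2))
  · intro h
    by_contra h0
    have key : ∀ χ ∈ relS K, classInner ψ (star χ) = 0 := fun χ hχ => by
      have h1 : χ ∈ zspan (relS K) := Submodule.subset_span hχ
      obtain ⟨η, hη, e⟩ := exists_irr_of_genChar_norm_one (hstar.2.2.2 _ h1)
        ((hstar.2.2.1 _ h1 _ h1).trans (classInner_irr_self hχ.1))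
      have h2 := classInner_irr_of_ne hψ hη fun e' => h0 ⟨χ, hχ, e.imp (e' ▸ Eq.symm) fun e => by
        rw [e, neg_neg, e']⟩
      rcases e with e | e <;> simp [e, h2, classInner_neg_right]
    refine h (const_of_inner (isClassFunction_restrict K (isClassFunction_restrict N
      (isClassFunction_of_isIrr hψ))) fun τ σ hτ hσ h1 h2 => ?_)
    have h3 := inner_star_comb hK hstar hext (isClassFunction_of_isIrr hψ) hτ hσ h1 h2
    rw [key _ ((mem_relS hK).2 ⟨τ, hτ, h1, rfl⟩), key _ ((mem_relS hK).2 ⟨σ, hσ, h2, rfl⟩)] at h3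
    linear_combination -h3

omit [Fintype G] in
theorem centralizer_le_subgroupOf {K N : Subgroup G}
    (hC : ∀ k ∈ K, k ≠ 1 → Subgroup.centralizer ({k} : Set G) ≤ K) :
    ∀ x ∈ K.subgroupOf N, x ≠ 1 → Subgroup.centralizer ({x} : Set N) ≤ K.subgroupOf N :=
  fun x hx h1 y hy => hC x hx (by simpa using h1) (by
    rw [Subgroup.mem_centralizer_singleton_iff] at hy ⊢
    exact congrArg Subtype.val hy)

end CfsgLib.ChMisc
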